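import Cfsg.Agent.CosetEnum.ON.JankoFive.Data

/-! Generated: checks of facts. -/

set_option autoImplicit false
set_option maxRecDepth 100000

namespace CfsgLib.CosetEnum.ON.JankoFive

open CfsgLib.CosetEnum

theorem facts0 : checkFacts epF (fun x => bif Nat.blt x 2 then x ^^^ 1 else x) words 8 0 [0x1, 0x0, 0x0, 0x0, 0x0, 0x0, 0x0, 0x0, 0x0, 0x0, 0x0, 0x0, 0x0, 0x0, 0x0, 0x0, 0x0, 0x0, 0x0, 0x0, 0x0, 0x0, 0x0, 0x0, 0x0, 0x0, 0x0, 0x0, 0x0, 0x0, 0x0, 0x0, 0x0, 0x0, 0x0, 0x0, 0x0, 0x0, 0x0, 0x0, 0x0, 0x0, 0x0, 0x0, 0x0, 0x0, 0x0, 0x0, 0x0, 0x0, 0x0, 0x0, 0x0, 0x0, 0x0, 0x0, 0x0, 0x0, 0x0, 0x0, 0x0, 0x0, 0x0, 0x0, 0x0, 0x0, 0x0, 0x0, 0x0, 0x0, 0xf00011000130001500017000190001b0001d0001f00021000230002500027000290002b0002d0002f00031000330003500037000390003b0003d0003f00041000430004500047000490004b0004d0004f00051000530005500057000590005b0005d0005f00061000630006500067000690006b0006d0006f00071000730007500077000790007b0007d0007f00081000830008500087000890008b000030000500007000090000b0000d00006000060000700048]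 = true := by
  decide +kernel

theorem factsUpTo71 (h : FactsChecked epF (fun x => bif Nat.blt x 2 then x ^^^ 1 else x) words 8 0) :
    FactsChecked epF (fun x => bif Nat.blt x 2 then x ^^^ 1 else x) words 8 71 :=
  (FactsChecked.app _ 71 h facts0 rfl)

end CfsgLib.CosetEnum.ON.JankoFive
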