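import Cfsg.Agent.CosetEnum.ON.JankoFive.Facts0

/-! Generated: the orbit. -/

set_option autoImplicit false
set_option maxRecDepth 100000

namespace CfsgLib.CosetEnum.ON.JankoFive

open CfsgLib.CosetEnum

theorem facts : FactsChecked epF (fun x => bif Nat.blt x 2 then x ^^^ 1 else x) words 8 71 :=
  (factsUpTo71 FactsChecked.zero)

theorem paths0 : checkPaths epF (fun x => bif Nat.blt x 2 then x ^^^ 1 else x) 71 orbitWords 1 nodeF nextF 1 0 [0x8d0008a00088000860008400082000800007e0007c0007a00078000760007400072000700006e0006c0006a00068000660006400062000600005e0005c0005a00058000560005400052000500004e0004c0004a00048000460004400042000400003e0003c0003a00038000360003400032000300002e0002c0002a00028000260002400022000200001e0001c0001a00018000160001400012000100000e0000c0000a0000800006000040000200046] = true := by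
  decide +kernel

theorem paths : PathsChecked epF (fun x => bif Nat.blt x 2 then x ^^^ 1 else x) 71 orbitWords 1 nodeF nextF 1 1 :=
  (PathsChecked.app _ 1 PathsChecked.zero paths0 rfl)

theorem node_zero : nodeF 0 = 0 := by decide +kernel

end CfsgLib.CosetEnum.ON.JankoFive
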